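import Mathlib
import Cfsg.Prelude.Def_Blocks
import Cfsg.Agent.Lib.Helper80.CharOps
import Cfsg.Agent.Lib.Helper80.ItoConverse

/-!
# S4463 (Isaacs–Passman), Lemma A (helper10)

If `b` bounds all irreducible character degrees of `G` and `ψ ∈ Irr(H)` has degree `≥ b`
then `ψ` extends to `G` and vanishes off the core of `H` in `G`.
-/

set_option autoImplicit false

namespace Cfsg.Agent.Lib.Helper10.IP

universe u

open Cfsg.Agent.Lib.Helper80

open scoped ComplexConjugate

/-- An irreducible character of `H` of degree at least the maximal degree of `G` is the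
restriction of an irreducible character of `G`. -/
theorem exists_irr_extension {G : Type u} [Group G] [Finite G] (b : ℕ)
    (hb : ∀ χ : Cfsg.IrrCharacter G, Cfsg.charDegree (χ : G → ℂ) ≤ b)
    (H : Subgroup G) (ψ : H → ℂ) (hψ : Cfsg.IsIrrCharacter H ψ)
    (hdeg : b ≤ Cfsg.charDegree ψ) :
    ∃ χ : G → ℂ, Cfsg.IsIrrCharacter G χ ∧ (fun h : H => χ h) = ψ := by
  classical
  have := Fintype.ofFinite G
  have : Fintype H := Fintype.ofFinite H
  have : Fintype (Cfsg.IrrCharacter H) := Fintype.ofFinite _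
  obtain ⟨χ, hχ, hne⟩ := exists_irr_over H hψ
  refine ⟨χ, hχ, ?_⟩
  refine eq_of_constituent_of_degree_le
    (isCharacter_restrict H (isCharacter_of_isIrrCharacter hχ)) hψ hne ?_
  have h1 : Cfsg.charDegree (fun h : H => χ h) = Cfsg.charDegree χ := rfl
  rw [h1]
  exact le_trans (hb ⟨χ, hχ⟩) hdeg

/-- **Lemma A**: an irreducible character of `H` of degree at least the maximal degree of `G`
vanishes off the core of `H`. -/
theorem vanish_off_core {G : Type u} [Group G] [Finite G] (b : ℕ)
    (hb : ∀ χ : Cfsg.IrrCharacter G, Cfsg.charDegree (χ : G → ℂ) ≤ b)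
    (H : Subgroup G) (ψ : H → ℂ) (hψ : Cfsg.IsIrrCharacter H ψ)
    (hdeg : b ≤ Cfsg.charDegree ψ) (h : H) (x : G) (hx : x * (h : G) * x⁻¹ ∉ H) :
    ψ h = 0 := by
  classical
  have := Fintype.ofFinite G
  have : Fintype H := Fintype.ofFinite H
  have : Fintype (Cfsg.IrrCharacter H) := Fintype.ofFinite _
  have : Fintype (Cfsg.IrrCharacter G) := Fintype.ofFinite _
  by_contra hne
  have hψc : Cfsg.IsCharacter H ψ := isCharacter_of_isIrrCharacter hψ
  obtain ⟨m, hm, hexp⟩ := character_expansion (isCharacter_indFun H hψc)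
  -- constituents restrict to ψ
  have hres : ∀ ξ : Cfsg.IrrCharacter G, m ξ ≠ 0 → (fun k : H => (ξ : G → ℂ) k) = ψ := by
    intro ξ hξ
    have hfr := frobenius_reciprocity H ψ (ξ : G → ℂ)
      (isClassFunction_of_isCharacter (isCharacter_of_isIrrCharacter ξ.2))
    rw [hm ξ] at hfr
    have hne' : Cfsg.classInner (fun k : H => (ξ : G → ℂ) k) ψ ≠ 0 := by
      rw [← classInner_conj_symm, ← hfr]
      simpa using hξ
    refine eq_of_constituent_of_degree_le
      (isCharacter_restrict H (isCharacter_of_isIrrCharacter ξ.2)) hψ hne' ?_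
    have h1 : Cfsg.charDegree (fun k : H => (ξ : G → ℂ) k) = Cfsg.charDegree (ξ : G → ℂ) := rfl
    rw [h1]
    exact le_trans (hb ξ) hdeg
  -- values of the induced character on H
  have hval : ∀ k : H, Cfsg.indFun H ψ (k : G) = (∑ ξ : Cfsg.IrrCharacter G, (m ξ : ℂ)) * ψ k := by
    intro k
    rw [hexp, Finset.sum_apply, Finset.sum_mul]
    refine Finset.sum_congr rfl fun ξ _ => ?_
    by_cases hξ : m ξ = 0
    · simp [hξ]
    · have := congrFun (hres ξ hξ) k
      simp only [Pi.smul_apply, smul_eq_mul]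
      rw [← this]
  have hψ1 : ψ 1 ≠ 0 := char_one_ne_zero hψ
  have hsum : (∑ ξ : Cfsg.IrrCharacter G, (m ξ : ℂ)) = (H.index : ℂ) := by
    have h1 := hval 1
    rw [Subgroup.coe_one, indFun_one] at h1
    exact (mul_right_cancel₀ hψ1 h1).symm
  -- a constituent
  have hex : ∃ ξ : Cfsg.IrrCharacter G, m ξ ≠ 0 := by
    by_contra hcon
    push Not at hcon
    have : (∑ ξ : Cfsg.IrrCharacter G, (m ξ : ℂ)) = 0 := by simp [hcon]
    rw [hsum] at this
    have hidx : H.index ≠ 0 := Subgroup.index_ne_zero_of_finite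
    exact hidx (by exact_mod_cast this)
  obtain ⟨ξ, hξ⟩ := hex
  have hξres := hres ξ hξ
  have hξcl : Cfsg.IsClassFunction G (ξ : G → ℂ) :=
    isClassFunction_of_isCharacter (isCharacter_of_isIrrCharacter ξ.2)
  -- direct evaluation of the induced character at h
  have hdirect : Cfsg.indFun H ψ (h : G) = (Nat.card H : ℂ)⁻¹ *
      (((Finset.univ.filter fun y : G => y⁻¹ * (h : G) * y ∈ H).card : ℂ) * ψ h) := by
    unfold Cfsg.indFun
    congr 1
    have key : ∀ y : G, Cfsg.extendByZero H ψ (y⁻¹ * (h : G) * y) =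
        if y⁻¹ * (h : G) * y ∈ H then ψ h else 0 := by
      intro y
      by_cases hy : y⁻¹ * (h : G) * y ∈ H
      · rw [if_pos hy]
        have e1 := extendByZero_apply_mem H ψ ⟨y⁻¹ * (h : G) * y, hy⟩
        rw [e1]
        have e2 := congrFun hξres ⟨y⁻¹ * (h : G) * y, hy⟩
        have e3 := congrFun hξres h
        simp only at e2 e3
        rw [← e2, ← e3]
        have := hξcl (h : G) y⁻¹
        rw [inv_inv] at this
        exact this
      · rw [if_neg hy, extendByZero_apply_not_mem H ψ hy]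
    rw [Finset.sum_congr rfl fun y _ => key y, Finset.sum_ite, Finset.sum_const_zero, add_zero,
      Finset.sum_const, nsmul_eq_mul]
  have h2 := hval h
  rw [hsum, hdirect] at h2
  have hH0 : (Nat.card H : ℂ) ≠ 0 := by
    exact_mod_cast (Nat.card_pos (α := H)).ne'
  have h3 : ((Finset.univ.filter fun y : G => y⁻¹ * (h : G) * y ∈ H).card : ℂ) =
      (Nat.card H : ℂ) * (H.index : ℂ) := by
    have h4 : (Nat.card H : ℂ)⁻¹ *
        ((Finset.univ.filter fun y : G => y⁻¹ * (h : G) * y ∈ H).card : ℂ) = (H.index : ℂ) := by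
      have h5 : ((Nat.card H : ℂ)⁻¹ *
          ((Finset.univ.filter fun y : G => y⁻¹ * (h : G) * y ∈ H).card : ℂ)) * ψ h =
          (H.index : ℂ) * ψ h := by
        rw [← h2]; ring
      exact mul_right_cancel₀ hne h5
    rw [← h4, ← mul_assoc, mul_inv_cancel₀ hH0, one_mul]
  have h6 : (Finset.univ.filter fun y : G => y⁻¹ * (h : G) * y ∈ H).card = Nat.card G := by
    rw [← Subgroup.card_mul_index H]
    exact_mod_cast h3
  have h7 : (Finset.univ.filter fun y : G => y⁻¹ * (h : G) * y ∈ H) = Finset.univ := by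
    apply Finset.eq_univ_of_card
    rw [h6, Nat.card_eq_fintype_card]
  have h8 : x⁻¹ ∈ (Finset.univ.filter fun y : G => y⁻¹ * (h : G) * y ∈ H) := by
    rw [h7]; exact Finset.mem_univ _
  rw [Finset.mem_filter, inv_inv] at h8
  exact hx h8.2

end Cfsg.Agent.Lib.Helper10.IP
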