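import Mathlib
import Cfsg.Prelude.Def_Blocks
import Cfsg.Agent.Lib.Helper80.CharOps
import Cfsg.Agent.Lib.Helper80.CharKer
import Cfsg.Agent.Lib.Helper80.ItoConverse
import Cfsg.Agent.Lib.Helper75.Gallagher2

/-!
# S4463 (Isaacs–Passman), (N1) (helper10)

If `K` is normal in `G` with `G / K` nonabelian and `b` bounds the irreducible character
degrees of `G`, then `2 θ(1) ≤ b` for every `θ ∈ Irr(K)`.
-/

set_option autoImplicit false

namespace Cfsg.Agent.Lib.Helper10.IP

universe u

open Cfsg.Agent.Lib.Helper80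

open scoped ComplexConjugate

/-- degree of a product of two characters -/
theorem charDegree_mul' {G : Type u} [Group G] {α χ : G → ℂ} (hα : Cfsg.IsCharacter G α)
    (hχ : Cfsg.IsCharacter G χ) :
    Cfsg.charDegree (α * χ) = Cfsg.charDegree α * Cfsg.charDegree χ := by
  have h1 : (α * χ) 1 = ((Cfsg.charDegree α * Cfsg.charDegree χ : ℕ) : ℂ) := by
    rw [Pi.mul_apply, char_one_eq_charDegree hα, char_one_eq_charDegree hχ]
    push_cast; rfl
  have h2 : Cfsg.charDegree (α * χ) = ⌊(((α * χ) 1 : ℂ)).re⌋₊ := rfl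
  rw [h2, h1, Complex.natCast_re, Nat.floor_natCast]

/-- **(N1)**: `2 b(K) ≤ b(G)` when `G / K` is nonabelian. -/
theorem two_mul_degree_le {G : Type u} [Group G] [Finite G] (b : ℕ)
    (hb : ∀ χ : Cfsg.IrrCharacter G, Cfsg.charDegree (χ : G → ℂ) ≤ b)
    (K : Subgroup G) [K.Normal] (hK : ∃ x y : G, x * y * x⁻¹ * y⁻¹ ∉ K)
    (θ : Cfsg.IrrCharacter K) : 2 * Cfsg.charDegree (θ : K → ℂ) ≤ b := by
  classical
  have := Fintype.ofFinite G
  have : Fintype K := Fintype.ofFinite K
  have : Fintype (Cfsg.IrrCharacter K) := Fintype.ofFinite _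
  obtain ⟨χ, hχ, hne⟩ := exists_irr_over K θ.2
  obtain ⟨e, he⟩ := charDegree_eq_mul_index_inertia K hχ θ.2 hne
  have hχpos := charDegree_pos hχ
  have hθpos := charDegree_pos θ.2
  rw [mul_assoc] at he
  by_cases hc2 : 2 ≤ e * ((Helper75.inertia K (θ : K → ℂ)).index)
  · calc 2 * Cfsg.charDegree (θ : K → ℂ)
        ≤ e * ((Helper75.inertia K (θ : K → ℂ)).index) * Cfsg.charDegree (θ : K → ℂ) :=
          Nat.mul_le_mul_right _ hc2
      _ = Cfsg.charDegree χ := by rw [he, mul_assoc]
      _ ≤ b := hb ⟨χ, hχ⟩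
  · have hc1 : e * ((Helper75.inertia K (θ : K → ℂ)).index) = 1 := by
      rcases Nat.lt_or_ge 0 (e * ((Helper75.inertia K (θ : K → ℂ)).index)) with h | h
      · omega
      · have h0 : e * ((Helper75.inertia K (θ : K → ℂ)).index) = 0 := by omega
        rw [← mul_assoc, h0, zero_mul] at he
        omega
    rw [← mul_assoc, hc1, one_mul] at he
    -- χ restricts to θ
    have hres : (fun k : K => χ k) = (θ : K → ℂ) := by
      refine eq_of_constituent_of_degree_le
        (isCharacter_restrict K (isCharacter_of_isIrrCharacter hχ)) θ.2 hne ?_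
      have h1 : Cfsg.charDegree (fun k : K => χ k) = Cfsg.charDegree χ := rfl
      rw [h1, he]
    -- a nonlinear irreducible character of the quotient
    have hβ : ∃ β : Cfsg.IrrCharacter (G ⧸ K), 2 ≤ Cfsg.charDegree (β : G ⧸ K → ℂ) := by
      by_contra hcon
      push Not at hcon
      have hcomm : IsMulCommutative (G ⧸ K) :=
        isMulCommutative_of_forall_charDegree_eq_one (G := G ⧸ K) (fun β => by
          have h1 := hcon β
          have h2 := charDegree_pos β.2
          omega)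
      obtain ⟨x, y, hxy⟩ := hK
      apply hxy
      have h1 : ((x * y * x⁻¹ * y⁻¹ : G) : G ⧸ K) = 1 := by
        have h2 := hcomm.is_comm.comm (x : G ⧸ K) (y : G ⧸ K)
        rw [QuotientGroup.mk_mul, QuotientGroup.mk_mul, QuotientGroup.mk_mul, h2,
          QuotientGroup.mk_inv, QuotientGroup.mk_inv]
        group
      exact (QuotientGroup.eq_one_iff _).mp h1
    obtain ⟨β, hβ2⟩ := hβ
    have hβ0 : Cfsg.IsIrrCharacter G (fun g => (β : G ⧸ K → ℂ) (g : G ⧸ K)) :=
      isIrrCharacter_inflate K β.2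
    have hχK : Cfsg.IsIrrCharacter K (fun k : K => χ k) := by rw [hres]; exact θ.2
    have hirr := Helper75.gallagher_irr K hχ hχK hβ0 (fun n => by
      have h1 : ((n : G) : G ⧸ K) = 1 := (QuotientGroup.eq_one_iff _).mpr n.2
      show (β : G ⧸ K → ℂ) ((n : G) : G ⧸ K) = (β : G ⧸ K → ℂ) ((1 : G) : G ⧸ K)
      rw [h1]
      rfl)
    have hdeg := charDegree_mul' (isCharacter_of_isIrrCharacter hβ0)
      (isCharacter_of_isIrrCharacter hχ)
    have hle := hb ⟨_, hirr⟩
    simp only at hle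
    rw [hdeg] at hle
    have h3 : Cfsg.charDegree (fun g : G => (β : G ⧸ K → ℂ) (g : G ⧸ K)) =
        Cfsg.charDegree (β : G ⧸ K → ℂ) := rfl
    rw [h3, he] at hle
    calc 2 * Cfsg.charDegree (θ : K → ℂ)
        ≤ Cfsg.charDegree (β : G ⧸ K → ℂ) * Cfsg.charDegree (θ : K → ℂ) :=
          Nat.mul_le_mul_right _ hβ2
      _ ≤ b := hle

end Cfsg.Agent.Lib.Helper10.IP
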