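import Mathlib
import Cfsg.Agent.Lib.Helper86.IP.Defs
import Cfsg.Agent.Lib.Helper10.IP.LemA
import Cfsg.Agent.Lib.Helper10.IP.N1

/-!
# S4463 team project (lead helper86): packages [VANA] and [N1] (helper10)
-/

set_option autoImplicit false

namespace Cfsg.Agent.Lib.Helper10.IP

universe u

open Cfsg.Agent.Lib.Helper86.IP

/-- package [VANA] -/
theorem lemVanA : LemVanA.{u} := by
  intro X _ _ H b hb ψ hψ h hh
  have hle : ∀ χ : Cfsg.IrrCharacter X, Cfsg.charDegree (χ : X → ℂ) ≤ b :=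
    fun χ => hb.2 ⟨χ, rfl⟩
  have hex : ∃ x : X, x * (h : X) * x⁻¹ ∉ H := by
    by_contra hcon
    push Not at hcon
    apply hh
    rw [Subgroup.normalCore]
    intro g
    exact hcon g
  obtain ⟨x, hx⟩ := hex
  exact vanish_off_core b hle H (ψ : ↥H → ℂ) ψ.2 (le_of_eq hψ.symm) h x hx

/-- package [N1] -/
theorem lemN1 : LemN1.{u} := by
  intro X _ _ K _ b b' hK hb hb'
  have hle : ∀ χ : Cfsg.IrrCharacter X, Cfsg.charDegree (χ : X → ℂ) ≤ b :=
    fun χ => hb.2 ⟨χ, rfl⟩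
  obtain ⟨θ, hθ⟩ := hb'.1
  have hK' : ∃ x y : X, x * y * x⁻¹ * y⁻¹ ∉ K := by
    by_contra hcon
    push Not at hcon
    apply hK
    intro x y
    obtain ⟨x, rfl⟩ := QuotientGroup.mk_surjective x
    obtain ⟨y, rfl⟩ := QuotientGroup.mk_surjective y
    have h1 : ((x * y * x⁻¹ * y⁻¹ : X) : X ⧸ K) = 1 :=
      (QuotientGroup.eq_one_iff _).mpr (hcon x y)
    rw [QuotientGroup.mk_mul, QuotientGroup.mk_mul, QuotientGroup.mk_mul,
      QuotientGroup.mk_inv, QuotientGroup.mk_inv] at h1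
    calc (x : X ⧸ K) * (y : X ⧸ K)
        = ((x : X ⧸ K) * (y : X ⧸ K) * (x : X ⧸ K)⁻¹ * (y : X ⧸ K)⁻¹) * ((y : X ⧸ K) * (x : X ⧸ K)) := by
          group
      _ = (y : X ⧸ K) * (x : X ⧸ K) := by rw [h1, one_mul]
  have := two_mul_degree_le b hle K hK' θ
  rw [hθ] at this
  exact this

end Cfsg.Agent.Lib.Helper10.IP
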